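import Cfsg.Agent.H6.HNR.NI.D

set_option autoImplicit false
set_option maxRecDepth 100000
set_option Elab.async false

namespace Cfsg.H6.HNR.NI

theorem li2 : linChk chk 17213620480 sg 8 A 2 = true := by decide +kernel

theorem li6 : linChk chk 17213620480 sg 8 A 6 = true := by decide +kernel

theorem li10 : linChk chk 17213620480 sg 8 A 10 = true := by decide +kernel

theorem li14 : linChk chk 17213620480 sg 8 A 14 = true := by decide +kernel

theorem co2 : allR (cosChk chk 17213620480 sg 8 3 M (Cs.map Prod.fst)) 16 8 = true := by decide +kernel

end Cfsg.H6.HNR.NI
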